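import Mathlib
import Cfsg.Agent.IndFun.Basic

/-!
The product of two permutation characters on cosets is a sum of permutation characters on cosets.
-/

set_option autoImplicit false

namespace CfsgLib.IndFun

theorem fixedBy_mul_decomp {G : Type*} [Group G] [Finite G] (H K : Subgroup G) [Fintype (Subgroup G)] :
    ∃ a : Subgroup G → ℕ, (∀ U, a U ≠ 0 → U ≤ H) ∧ ∀ g : G,
      Nat.card (MulAction.fixedBy (G ⧸ H) g) * Nat.card (MulAction.fixedBy (G ⧸ K) g) =
        ∑ U : Subgroup G, a U * Nat.card (MulAction.fixedBy (G ⧸ U) g) := by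
  classical
  let X := (G ⧸ H) × (G ⧸ K)
  let Ω := MulAction.orbitRel.Quotient G X
  have := Fintype.ofFinite Ω
  have hrep : ∀ ω : Ω, ∃ x : X, Quotient.mk'' x = ω ∧ x.1 = ((1 : G) : G ⧸ H) := by
    intro ω
    obtain ⟨⟨q, r⟩, rfl⟩ := Quotient.mk''_surjective ω
    obtain ⟨c, rfl⟩ := QuotientGroup.mk_surjective q
    refine ⟨c⁻¹ • ((c : G ⧸ H), r), Quotient.sound' ⟨c⁻¹, rfl⟩, ?_⟩
    change ((c⁻¹ * c : G) : G ⧸ H) = _
    rw [inv_mul_cancel]
  choose φ hφ hφ1 using hrep
  have hle : ∀ ω, MulAction.stabilizer G (φ ω) ≤ H := by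
    intro ω g hg
    have h := congrArg Prod.fst (MulAction.mem_stabilizer_iff.mp hg)
    change g • (φ ω).1 = (φ ω).1 at h
    rw [hφ1] at h
    change ((g * 1 : G) : G ⧸ H) = ((1 : G) : G ⧸ H) at h
    rw [mul_one, eq_comm, QuotientGroup.eq] at h
    simpa using h
  refine ⟨fun U => (Finset.univ.filter fun ω => MulAction.stabilizer G (φ ω) = U).card, ?_, ?_⟩
  · intro U hU
    obtain ⟨ω, hω⟩ := Finset.card_ne_zero.mp hU
    exact (Finset.mem_filter.mp hω).2 ▸ hle ω
  intro g
  let e : (Σ ω : Ω, G ⧸ MulAction.stabilizer G (φ ω)) ≃ X :=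
    Equiv.ofBijective (fun p => MulAction.ofQuotientStabilizer G (φ p.1) p.2) (by
      constructor
      · rintro ⟨ω, q⟩ ⟨ω', q'⟩ h
        obtain ⟨c, rfl⟩ := QuotientGroup.mk_surjective q
        obtain ⟨c', rfl⟩ := QuotientGroup.mk_surjective q'
        change c • φ ω = c' • φ ω' at h
        obtain rfl : ω = ω' := by
          rw [← hφ ω, ← hφ ω']
          exact Quotient.sound' ⟨c⁻¹ * c', by simp only [mul_smul, ← h, inv_smul_smul]⟩
        exact congrArg (Sigma.mk ω) (MulAction.injective_ofQuotientStabilizer G (φ ω) h)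
      · intro x
        have := Quotient.exact' (hφ (Quotient.mk'' x))
        obtain ⟨c, hc⟩ := this
        exact ⟨⟨Quotient.mk'' x, (c⁻¹ : G)⟩, by
          change c⁻¹ • φ _ = x
          rw [← hc]; exact inv_smul_smul c x⟩)
  have he : ∀ p, g • e p = e ⟨p.1, g • p.2⟩ := fun p =>
    (MulAction.ofQuotientStabilizer_smul G (φ p.1) g p.2).symm
  have e' : (Σ ω : Ω, MulAction.fixedBy (G ⧸ MulAction.stabilizer G (φ ω)) g) ≃ MulAction.fixedBy X g :=
    (show _ ≃ {p : Σ ω : Ω, G ⧸ MulAction.stabilizer G (φ ω) //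
        g • p.2 = p.2} from
      { toFun := fun p => ⟨⟨p.1, p.2.1⟩, p.2.2⟩
        invFun := fun p => ⟨p.1.1, p.1.2, p.2⟩
        left_inv := fun p => rfl
        right_inv := fun p => rfl }).trans
      (e.subtypeEquiv fun p => by
        rw [MulAction.mem_fixedBy, he]
        exact ⟨fun h => by rw [h], fun h => by
          have := e.injective h
          exact eq_of_heq (Sigma.mk.inj_iff.mp this).2⟩)
  have e2 : MulAction.fixedBy X g ≃ MulAction.fixedBy (G ⧸ H) g × MulAction.fixedBy (G ⧸ K) g :=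
    { toFun := fun p => (⟨p.1.1, congrArg Prod.fst p.2⟩, ⟨p.1.2, congrArg Prod.snd p.2⟩)
      invFun := fun p => ⟨(p.1.1, p.2.1), Prod.ext p.1.2 p.2.2⟩
      left_inv := fun p => rfl
      right_inv := fun p => rfl }
  rw [← Nat.card_prod, ← Nat.card_congr (e'.trans e2), Nat.card_sigma]
  rw [← Finset.sum_fiberwise_of_maps_to (g := fun ω => MulAction.stabilizer G (φ ω))
    (fun ω _ => Finset.mem_univ _) (fun ω => Nat.card (MulAction.fixedBy (G ⧸ MulAction.stabilizer G (φ ω)) g))]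
  refine Finset.sum_congr rfl fun U _ => ?_
  rw [Finset.sum_congr rfl (g := fun _ => Nat.card (MulAction.fixedBy (G ⧸ U) g))
    (fun ω hω => by rw [(Finset.mem_filter.mp hω).2]), Finset.sum_const, smul_eq_mul]

end CfsgLib.IndFun
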